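/-
The Hermitian adjoint on the endomorphisms of the standard unitary space.
-/
import Cfsg.Agent.Lib.SUSpec.Structure
import Cfsg.Agent.Lib.SemiSimple.Mat
import Cfsg.Agent.Lib.Wall.Polar
import Cfsg.Agent.Lib.Witt.HermModel

set_option autoImplicit false
set_option linter.unusedSectionVars false

namespace Cfsg.Agent.Lib.SUConj.Adj

open Polynomial Module
open Cfsg.Agent.Lib.HermCount.Field Cfsg.Agent.Lib.HermCount.Space Cfsg.Agent.Lib.HermCount.Lines
open Cfsg.Agent.Lib.Wall.Polar

variable {F : Type*} [Field F] [Fintype F] {q : ℕ} (hF : Fintype.card F = q ^ 2) {n : ℕ}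

/-- Hermitian adjoint of a matrix. -/
noncomputable def adjM (A : Matrix (Fin n) (Fin n) F) : Matrix (Fin n) (Fin n) F :=
  (A.map (frobHom hF)).transpose

lemma adjM_adjM (A : Matrix (Fin n) (Fin n) F) : adjM hF (adjM hF A) = A := by
  ext i j
  simp [adjM, frob_frob hF]

lemma adjM_mul (A B : Matrix (Fin n) (Fin n) F) : adjM hF (A * B) = adjM hF B * adjM hF A := by
  unfold adjM
  rw [Matrix.map_mul, Matrix.transpose_mul]

lemma adjM_one : adjM hF (1 : Matrix (Fin n) (Fin n) F) = 1 := by
  unfold adjM
  rw [Matrix.map_one _ (map_zero _) (map_one _), Matrix.transpose_one]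

lemma adjM_add (A B : Matrix (Fin n) (Fin n) F) : adjM hF (A + B) = adjM hF A + adjM hF B := by
  unfold adjM
  rw [Matrix.map_add _ (map_add _), Matrix.transpose_add]

lemma det_adjM (A : Matrix (Fin n) (Fin n) F) : (adjM hF A).det = A.det ^ q := by
  unfold adjM
  rw [Matrix.det_transpose]
  have := RingHom.map_det (frobHom hF) A
  rw [frobHom_apply] at this
  rw [this]
  rfl

/-- Hermitian adjoint of an endomorphism. -/
noncomputable def adj (φ : Module.End F (Fin n → F)) : Module.End F (Fin n → F) :=
  Matrix.toLin' (adjM hF (LinearMap.toMatrix' φ))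

lemma toMatrix'_adj (φ : Module.End F (Fin n → F)) :
    LinearMap.toMatrix' (adj hF φ) = adjM hF (LinearMap.toMatrix' φ) := by
  simp [adj]

lemma adj_adj (φ : Module.End F (Fin n → F)) : adj hF (adj hF φ) = φ := by
  apply LinearMap.toMatrix'.injective
  rw [toMatrix'_adj, toMatrix'_adj, adjM_adjM]

lemma adj_mul (φ ψ : Module.End F (Fin n → F)) : adj hF (φ * ψ) = adj hF ψ * adj hF φ := by
  apply LinearMap.toMatrix'.injective
  rw [toMatrix'_adj, Module.End.mul_eq_comp, LinearMap.toMatrix'_comp, adjM_mul, ← toMatrix'_adj, ← toMatrix'_adj,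
    Module.End.mul_eq_comp, LinearMap.toMatrix'_comp]

lemma adj_one : adj hF (1 : Module.End F (Fin n → F)) = 1 := by
  apply LinearMap.toMatrix'.injective
  rw [toMatrix'_adj, Module.End.one_eq_id, LinearMap.toMatrix'_id, adjM_one]

lemma adj_add (φ ψ : Module.End F (Fin n → F)) : adj hF (φ + ψ) = adj hF φ + adj hF ψ := by
  apply LinearMap.toMatrix'.injective
  rw [toMatrix'_adj, map_add, adjM_add, map_add, ← toMatrix'_adj, ← toMatrix'_adj]

lemma adj_anti : Anti (adj hF (n := n)) := ⟨adj_add hF, adj_mul hF, adj_one hF⟩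

lemma det_adj (φ : Module.End F (Fin n → F)) : LinearMap.det (adj hF φ) = (LinearMap.det φ) ^ q := by
  rw [← LinearMap.det_toMatrix', ← LinearMap.det_toMatrix', toMatrix'_adj, det_adjM]

lemma herm_adj (φ : Module.End F (Fin n → F)) (x y : Fin n → F) :
    Cfsg.hermForm n F q (φ x) y = Cfsg.hermForm n F q x (adj hF φ y) := by
  classical
  have h1 : φ x = (LinearMap.toMatrix' φ).mulVec x := (LinearMap.toMatrix'_mulVec φ x).symm
  have h2 : adj hF φ y = (adjM hF (LinearMap.toMatrix' φ)).mulVec y := by
    simp [adj]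
  rw [h1, h2]
  set A := LinearMap.toMatrix' φ
  unfold Cfsg.hermForm
  have h3 : ∀ j, ((adjM hF A).mulVec y j) ^ q = ∑ i, A i j * y i ^ q := by
    intro j
    have : ((adjM hF A).mulVec y j) ^ q = frobHom hF ((adjM hF A).mulVec y j) := rfl
    rw [this]
    simp only [Matrix.mulVec, dotProduct, map_sum, map_mul]
    apply Finset.sum_congr rfl
    intro i _
    simp [adjM, frob_frob hF]
  calc ∑ i, A.mulVec x i * y i ^ q = ∑ i, ∑ j, x j * (A i j * y i ^ q) := by
        apply Finset.sum_congr rfl
        intro i _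
        simp only [Matrix.mulVec, dotProduct, Finset.sum_mul]
        apply Finset.sum_congr rfl
        intro j _
        ring
    _ = ∑ j, ∑ i, x j * (A i j * y i ^ q) := Finset.sum_comm
    _ = ∑ j, x j * ((adjM hF A).mulVec y j) ^ q := by
        simp only [h3, Finset.mul_sum]

lemma herm_adj' (φ : Module.End F (Fin n → F)) (x y : Fin n → F) :
    Cfsg.hermForm n F q (adj hF φ x) y = Cfsg.hermForm n F q x (φ y) := by
  rw [herm_adj hF, adj_adj]

lemma adj_eq_of (φ ψ : Module.End F (Fin n → F))
    (h : ∀ x y, Cfsg.hermForm n F q (φ x) y = Cfsg.hermForm n F q x (ψ y)) : adj hF φ = ψ := by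
  have S := herm_space (F := F) (q := q) n hF
  apply LinearMap.ext
  intro y
  apply sub_eq_zero.1
  apply S.nd
  intro x
  rw [S.conj x, S.sub_right hF, ← herm_adj hF, h, sub_self]
  exact zero_pow (by have := two_le hF; omega)

lemma adj_smul (c : F) (φ : Module.End F (Fin n → F)) : adj hF (c • φ) = c ^ q • adj hF φ := by
  apply adj_eq_of
  intro x y
  have S := herm_space (F := F) (q := q) n hF
  simp only [LinearMap.smul_apply]
  rw [S.smul_left, S.smul_right hF, herm_adj hF, frob_frob hF]

lemma adj_scalar (c : F) : adj hF (algebraMap F (Module.End F (Fin n → F)) c) =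
    algebraMap F (Module.End F (Fin n → F)) (c ^ q) := by
  rw [Algebra.algebraMap_eq_smul_one, adj_smul, adj_one, Algebra.algebraMap_eq_smul_one]

/-- Self-isometries in terms of the adjoint. -/
lemma adj_mul_self_of_isometry (φ : Module.End F (Fin n → F))
    (h : ∀ x y, Cfsg.hermForm n F q (φ x) (φ y) = Cfsg.hermForm n F q x y) : adj hF φ * φ = 1 := by
  have S := herm_space (F := F) (q := q) n hF
  apply LinearMap.ext
  intro y
  apply sub_eq_zero.1
  apply S.nd
  intro x
  rw [S.conj x, S.sub_right hF, Module.End.mul_apply, ← herm_adj hF, h, Module.End.one_apply, sub_self]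
  exact zero_pow (by have := two_le hF; omega)

lemma isometry_of_adj_mul_self (φ : Module.End F (Fin n → F)) (h : adj hF φ * φ = 1) (x y : Fin n → F) :
    Cfsg.hermForm n F q (φ x) (φ y) = Cfsg.hermForm n F q x y := by
  rw [herm_adj hF, ← Module.End.mul_apply, h, Module.End.one_apply]

/-- Orthogonal complement of a non-degenerate subspace. -/
theorem isCompl_orth (W : Submodule F (Fin n → F))
    (hW : ∀ u ∈ W, (∀ v ∈ W, Cfsg.hermForm n F q u v = 0) → u = 0) :
    IsCompl W (Cfsg.Agent.Lib.Witt.HermModel.orth (herm_space (F := F) (q := q) n hF) W) := by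
  classical
  have S := herm_space (F := F) (q := q) n hF
  have SW := S.restrict W hW
  obtain ⟨b, hb⟩ := Cfsg.Agent.Lib.Witt.HermModel.exists_orthonormal hF (finrank F W) W _ SW rfl
  set W' := Cfsg.Agent.Lib.Witt.HermModel.orth S W with hW'
  constructor
  · rw [Submodule.disjoint_def]
    intro x hx hx'
    exact hW x hx (fun v hv => hx' v hv)
  · rw [codisjoint_iff, eq_top_iff]
    intro x _
    -- projection
    let p : W := ∑ i, (Cfsg.hermForm n F q x (b i : Fin n → F)) • b i
    have hpb : ∀ j, Cfsg.hermForm n F q (p : Fin n → F) (b j : Fin n → F) = Cfsg.hermForm n F q x (b j : Fin n → F) := by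
      intro j
      have h1 := Cfsg.Agent.Lib.Witt.HermModel.sum_smul_left SW Finset.univ (fun i => Cfsg.hermForm n F q x (b i : Fin n → F)) b (b j)
      have h2 : Cfsg.hermForm n F q (p : Fin n → F) (b j : Fin n → F) =
          ∑ i, Cfsg.hermForm n F q x (b i : Fin n → F) * Cfsg.hermForm n F q (b i : Fin n → F) (b j : Fin n → F) := h1
      rw [h2, Finset.sum_eq_single j]
      · have := hb j j
        simp only [if_true] at this
        rw [show Cfsg.hermForm n F q (b j : Fin n → F) (b j : Fin n → F) = 1 from this, mul_one]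
      · intro i _ hi
        have := hb i j
        rw [if_neg hi] at this
        rw [show Cfsg.hermForm n F q (b i : Fin n → F) (b j : Fin n → F) = 0 from this, mul_zero]
      · simp
    have hy : x - (p : Fin n → F) ∈ W' := by
      intro w hw
      have hz : ∀ i, Cfsg.hermForm n F q (b i : Fin n → F) (x - (p : Fin n → F)) = 0 := by
        intro i
        apply S.zero_of_zero hF
        rw [S.sub_left, hpb, sub_self]
      have hexp := Cfsg.Agent.Lib.Witt.HermModel.orthonormal_expand SW _ rfl b hb ⟨w, hw⟩
      have h1 : Cfsg.hermForm n F q w (x - (p : Fin n → F)) = 0 := by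
        have h2 : w = ∑ i, Cfsg.hermForm n F q w (b i : Fin n → F) • (b i : Fin n → F) := by
          have h3 := congrArg (fun z : W => (z : Fin n → F)) hexp
          simp only [AddSubmonoidClass.coe_finset_sum] at h3
          exact h3
        rw [h2, Cfsg.Agent.Lib.Witt.HermModel.sum_smul_left S]
        exact Finset.sum_eq_zero fun i _ => by rw [hz, mul_zero]
      exact S.zero_of_zero hF h1
    have : x = (p : Fin n → F) + (x - (p : Fin n → F)) := by abel
    rw [this]
    exact Submodule.add_mem_sup p.2 hy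

end Cfsg.Agent.Lib.SUConj.Adj
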