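/-
Centralizers of semisimple elements in the unitary group have all determinants of norm one.
-/
import Cfsg.Agent.Lib.SUConj.Adj
import Cfsg.Agent.Lib.SemiSimple.Commuting

set_option autoImplicit false
set_option linter.unusedSectionVars false

namespace Cfsg.Agent.Lib.SUConj.Det

open Polynomial Module
open Cfsg.Agent.Lib.HermCount.Field Cfsg.Agent.Lib.HermCount.Space Cfsg.Agent.Lib.HermCount.Lines
open Cfsg.Agent.Lib.SemiSimple.Basic Cfsg.Agent.Lib.SemiSimple.Commuting Cfsg.Agent.Lib.SUConj.Adj

variable {F : Type*} [Field F] [Fintype F] {q : ℕ} (hF : Fintype.card F = q ^ 2) {n : ℕ}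

/-- Hilbert 90 for `F`. -/
lemma exists_h90_field (hF : Fintype.card F = q ^ 2) {δ : F} (hδ : δ ^ (q + 1) = 1) : ∃ a : F, a ≠ 0 ∧ a = a ^ q * δ := by
  classical
  have hq2 := two_le hF
  have hnorm : ∀ x : F, IsUnit x → frobHom hF x = x → ∃ y, frobHom hF y * y = x := by
    intro x hx hfix
    have h1 := card_norm_fiber hF x hfix hx.ne_zero
    have h2 : Nonempty {a : F // a ^ (q + 1) = x} := by
      apply (Nat.card_pos_iff.1 (by rw [h1]; omega)).1
    obtain ⟨y, hy⟩ := h2
    refine ⟨y, ?_⟩
    rw [frobHom_apply, ← pow_succ]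
    exact hy
  obtain ⟨x, hx, hxe⟩ := Cfsg.Agent.Lib.Wall.Polar.h90_of_norm (frobHom hF) (frob_frob hF) hnorm δ (by
    rw [frobHom_apply, ← pow_succ]
    exact hδ)
  exact ⟨x, hx.ne_zero, hxe⟩

/-- Adjoints of elements commuting with an isometry also commute with it. -/
lemma adj_commute {T y : Module.End F (Fin n → F)} (hT : adj hF T * T = 1) (hT' : T * adj hF T = 1)
    (h : y * T = T * y) : adj hF y * T = T * adj hF y := by
  have h1 : adj hF T * adj hF y = adj hF y * adj hF T := by
    rw [← adj_mul, ← adj_mul, h]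
  calc adj hF y * T = (T * adj hF T) * (adj hF y * T) := by rw [hT', one_mul]
    _ = T * (adj hF T * adj hF y) * T := by noncomm_ring
    _ = T * (adj hF y * adj hF T) * T := by rw [h1]
    _ = T * adj hF y * (adj hF T * T) := by noncomm_ring
    _ = T * adj hF y := by rw [hT, mul_one]

/-- The idempotent for a totally singular piece. -/
lemma singular_idem {e₀ : Module.End F (Fin n → F)} (h0 : e₀ * e₀ = e₀) (hs : adj hF e₀ * e₀ = 0) {c : F}
    (hc : c + c ^ q = 1) :
    (e₀ - c • (e₀ * adj hF e₀)) * e₀ = e₀ ∧ e₀ * (e₀ - c • (e₀ * adj hF e₀)) = e₀ - c • (e₀ * adj hF e₀) ∧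
      (e₀ - c • (e₀ * adj hF e₀)) * adj hF (e₀ - c • (e₀ * adj hF e₀)) =
        adj hF (e₀ - c • (e₀ * adj hF e₀)) * (e₀ - c • (e₀ * adj hF e₀)) := by
  set f := adj hF e₀ with hf
  have hff : f * f = f := by
    rw [hf, ← adj_mul, h0]
  have hfe : adj hF f = e₀ := adj_adj hF e₀
  set t := e₀ * f with ht
  have hte : t * e₀ = 0 := by rw [ht, mul_assoc, hs, mul_zero]
  have het : e₀ * t = t := by rw [ht, ← mul_assoc, h0]
  have htf : t * f = t := by rw [ht, mul_assoc, hff]
  have hft : f * t = 0 := by rw [ht, ← mul_assoc, hs, zero_mul]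
  have htt : t * t = 0 := by rw [ht, mul_assoc, hft, mul_zero]
  have had : adj hF (e₀ - c • t) = f - c ^ q • t := by
    have h1 : e₀ - c • t = e₀ + (-c) • t := by
      module
    have h2 : adj hF t = t := by
      rw [ht, adj_mul, hfe]
    rw [h1, adj_add, adj_smul, h2, ← hf]
    have h3 : (-c) ^ q = - c ^ q := by
      have h4 : frobHom hF (-c) = - frobHom hF c := map_neg _ _
      simpa using h4
    rw [h3]
    module
  refine ⟨?_, ?_, ?_⟩
  · rw [sub_mul, smul_mul_assoc, hte, smul_zero, sub_zero, h0]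
  · rw [mul_sub, h0, mul_smul_comm, het]
  · rw [had]
    have h1 : (e₀ - c • t) * (f - c ^ q • t) = (1 - c - c ^ q) • t := by
      simp only [sub_mul, mul_sub, smul_mul_assoc, mul_smul_comm, het, htf, htt, ← ht, smul_zero, sub_zero]
      module
    have h2 : (f - c ^ q • t) * (e₀ - c • t) = 0 := by
      simp only [sub_mul, mul_sub, smul_mul_assoc, mul_smul_comm, hte, hs, htt, hft, smul_zero, sub_zero]
    rw [h1, h2]
    have h3 : 1 - c - c ^ q = 0 := by
      rw [← hc]
      ring
    rw [h3, zero_smul]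


/-- The idempotent: an idempotent with the same range as `e₀` commuting with `T` and with its adjoint. -/
theorem exists_idem (T : Module.End F (Fin n → F)) (hT : adj hF T * T = 1) (hT' : T * adj hF T = 1)
    (e₀ : Module.End F (Fin n → F)) (h0 : e₀ * e₀ = e₀) (h0T : e₀ * T = T * e₀)
    (hcyc : ∀ u v, e₀ u = u → e₀ v = v → u ≠ 0 → ∃ P : F[X], v = aeval T P u) :
    ∃ e : Module.End F (Fin n → F), e * e₀ = e₀ ∧ e₀ * e = e ∧ e * T = T * e ∧ e * adj hF e = adj hF e * e := by
  classical
  have S := herm_space (F := F) (q := q) n hF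
  have hq2 := two_le hF
  have h0x : ∀ x, e₀ (e₀ x) = e₀ x := fun x => LinearMap.congr_fun h0 x
  have hadjT : ∀ u v, Cfsg.hermForm n F q (T u) v = Cfsg.hermForm n F q u (adj hF T v) := herm_adj hF T
  have h0T' : e₀ * adj hF T = adj hF T * e₀ := by
    calc e₀ * adj hF T = (adj hF T * T) * (e₀ * adj hF T) := by rw [hT, one_mul]
      _ = adj hF T * (T * e₀) * adj hF T := by noncomm_ring
      _ = adj hF T * (e₀ * T) * adj hF T := by rw [h0T]
      _ = adj hF T * e₀ * (T * adj hF T) := by noncomm_ring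
      _ = adj hF T * e₀ := by rw [hT', mul_one]
  have h0T'x : ∀ x, e₀ (adj hF T x) = adj hF T (e₀ x) := fun x => LinearMap.congr_fun h0T' x
  have h0Tx : ∀ x, e₀ (T x) = T (e₀ x) := fun x => LinearMap.congr_fun h0T x
  by_cases hs : adj hF e₀ * e₀ = 0
  · obtain ⟨c, hc⟩ := exists_trace hF (1 : F) (by simp)
    obtain ⟨h1, h2, h3⟩ := singular_idem hF h0 hs hc
    refine ⟨_, h1, h2, ?_, h3⟩
    have h4 : adj hF e₀ * T = T * adj hF e₀ := adj_commute hF hT hT' h0T
    rw [sub_mul, mul_sub, smul_mul_assoc, mul_smul_comm, mul_assoc, h4, ← mul_assoc, h0T, mul_assoc]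
  · -- the range of `e₀` is non-degenerate
    set W := LinearMap.range e₀ with hW
    have hmemW : ∀ u, u ∈ W ↔ e₀ u = u := by
      intro u
      constructor
      · rintro ⟨y, rfl⟩
        exact h0x y
      · intro h
        exact ⟨u, h⟩
    have hnd : ∀ u ∈ W, (∀ v ∈ W, Cfsg.hermForm n F q u v = 0) → u = 0 := by
      intro u hu h1
      by_contra hne
      apply hs
      apply LinearMap.ext
      intro x
      apply S.nd
      intro y
      rw [Module.End.mul_apply, herm_adj' hF]
      obtain ⟨P, hP⟩ := hcyc u (e₀ x) ((hmemW u).1 hu) (h0x x) hne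
      rw [hP, Cfsg.Agent.Lib.SUSpec.Structure.adj_aeval S hF hadjT]
      apply h1
      rw [hmemW]
      have h2 : e₀ * aeval (adj hF T) (P.map (frobHom hF)) = aeval (adj hF T) (P.map (frobHom hF)) * e₀ :=
        commute_aeval _ _ h0T' _
      have h3 := LinearMap.congr_fun h2 (e₀ y)
      rw [Module.End.mul_apply, Module.End.mul_apply, h0x] at h3
      rw [h3]
    have hcompl := isCompl_orth hF W hnd
    set W' := Cfsg.Agent.Lib.Witt.HermModel.orth (herm_space (F := F) (q := q) n hF) W with hW'
    let E : Module.End F (Fin n → F) := Submodule.projection W W' hcompl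
    have hE1 : ∀ x, x ∈ W → E x = x := fun x hx => Submodule.projection_apply_of_mem_left hcompl hx
    have hE3 : ∀ x, E x ∈ W := fun x => Submodule.projection_apply_mem hcompl x
    have hE2 : ∀ x, x - E x ∈ W' := by
      intro x
      apply (Submodule.projection_apply_eq_zero_iff hcompl).1
      show E (x - E x) = 0
      rw [map_sub, hE1 _ (hE3 x), sub_self]
    have hE0 : ∀ x, x ∈ W' → E x = 0 := fun x hx => (Submodule.projection_apply_eq_zero_iff hcompl).2 hx
    have hadjE : adj hF E = E := by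
      apply adj_eq_of
      intro x y
      have h1 : Cfsg.hermForm n F q (E x) (y - E y) = 0 := S.zero_of_zero hF ((hE2 y) _ (hE3 x))
      have h2 : Cfsg.hermForm n F q (x - E x) (E y) = 0 := (hE2 x) _ (hE3 y)
      rw [S.sub_right hF, sub_eq_zero] at h1
      rw [S.sub_left, sub_eq_zero] at h2
      rw [h1, h2]
    refine ⟨E, ?_, ?_, ?_, by rw [hadjE]⟩
    · apply LinearMap.ext
      intro x
      exact hE1 _ ⟨x, rfl⟩
    · apply LinearMap.ext
      intro x
      exact (hmemW _).1 (hE3 x)
    · apply LinearMap.ext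
      intro x
      show E (T x) = T (E x)
      have hTW : T (E x) ∈ W := by
        rw [hmemW, h0Tx, (hmemW _).1 (hE3 x)]
      have hTW' : T (x - E x) ∈ W' := by
        intro v hv
        rw [hadjT]
        apply hE2 x
        rw [hmemW, h0T'x, (hmemW _).1 hv]
      have h1 : T x = T (E x) + T (x - E x) := by
        rw [← map_add]
        congr 1
        abel
      rw [h1, map_add, hE1 _ hTW, hE0 _ hTW', add_zero]

/-- The centraliser in the unitary group of a semisimple element has all determinants of norm one. -/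
theorem exists_unitary_det (T : Module.End F (Fin n → F)) (hT : adj hF T * T = 1) (hSS : IsSS T)
    [Nontrivial (Fin n → F)] (δ : F) (hδ : δ ^ (q + 1) = 1) :
    ∃ z : Module.End F (Fin n → F), z * T = T * z ∧ adj hF z * z = 1 ∧ LinearMap.det z = δ := by
  classical
  have S := herm_space (F := F) (q := q) n hF
  have hT' : T * adj hF T = 1 := mul_eq_one_comm.1 hT
  obtain ⟨p, hp, hm, V₁, _, _, _, T₁, Φ, hΦ⟩ := exists_split T hSS
  have : Fact (Irreducible p) := ⟨hp⟩
  have : Module.Finite F (AdjoinRoot p) := hm.finite_adjoinRoot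
  have : Finite (AdjoinRoot p) := Module.finite_of_finite F
  -- the idempotent
  let L₀ : (AdjoinRoot p × V₁) →ₗ[F] (AdjoinRoot p × V₁) := LinearMap.prodMap LinearMap.id 0
  let e₀ : Module.End F (Fin n → F) := (Φ.symm : _ →ₗ[F] _) ∘ₗ L₀ ∘ₗ (Φ : _ →ₗ[F] _)
  have he₀ : ∀ x, Φ (e₀ x) = ((Φ x).1, 0) := by
    intro x
    simp [e₀, L₀]
  have h0 : e₀ * e₀ = e₀ := by
    apply LinearMap.ext
    intro x
    apply Φ.injective
    rw [Module.End.mul_apply, he₀, he₀]
  have h0T : e₀ * T = T * e₀ := by
    apply LinearMap.ext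
    intro x
    apply Φ.injective
    rw [Module.End.mul_apply, Module.End.mul_apply, he₀, hΦ, hΦ, he₀]
    simp
  have hcyc : ∀ u v, e₀ u = u → e₀ v = v → u ≠ 0 → ∃ P : F[X], v = aeval T P u := by
    intro u v hu hv hne
    have h1 : Φ u = ((Φ u).1, 0) := by
      rw [← he₀, hu]
    have h2 : Φ v = ((Φ v).1, 0) := by
      rw [← he₀, hv]
    have hk : (Φ u).1 ≠ 0 := by
      intro h
      apply hne
      apply Φ.injective
      rw [h1, h, map_zero]
      rfl
    obtain ⟨P, hP⟩ := AdjoinRoot.mk_surjective ((Φ v).1 / (Φ u).1)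
    refine ⟨P, ?_⟩
    apply Φ.injective
    rw [aeval_split T T₁ Φ hΦ, h2, hP, h1]
    simp only [map_zero, Prod.mk.injEq, and_true]
    field_simp
  obtain ⟨e, he1, he2, heT, headj⟩ := exists_idem hF T hT hT' e₀ h0 h0T hcyc
  obtain ⟨a₀, ha₀, ha₀e⟩ := exists_h90_field hF hδ
  obtain ⟨a, ha⟩ := FiniteField.norm_surjective F (AdjoinRoot p) a₀
  obtain ⟨P, hP⟩ := AdjoinRoot.mk_surjective a
  set B := aeval T P with hB
  have hBT : T * B = B * T := commute_aeval T T rfl P
  have hBe₀ : e₀ * B = B * e₀ := commute_aeval e₀ T h0T P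
  have hBe : e * B = B * e := commute_aeval e T heT P
  set x₀ : Module.End F (Fin n → F) := 1 - e₀ + e₀ * B with hx₀
  have hx₀Φ : ∀ y, Φ (x₀ y) = (a * (Φ y).1, (Φ y).2) := by
    intro y
    simp only [hx₀, LinearMap.add_apply, LinearMap.sub_apply, Module.End.one_apply, Module.End.mul_apply, map_add,
      map_sub]
    rw [he₀, he₀, hB, aeval_split T T₁ Φ hΦ, hP]
    apply Prod.ext
    · simp
    · simp
  have hdetx₀ : LinearMap.det x₀ = a₀ := by
    let L : (AdjoinRoot p × V₁) →ₗ[F] (AdjoinRoot p × V₁) := (LinearMap.mulLeft F a).prodMap LinearMap.id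
    have h1 := LinearMap.det_conj L Φ.symm
    have h2 : ((Φ.symm : _ ≃ₗ[F] (Fin n → F)) : _ →ₗ[F] (Fin n → F)) ∘ₗ L ∘ₗ ((Φ.symm.symm : (Fin n → F) ≃ₗ[F] _) : (Fin n → F) →ₗ[F] _) = x₀ := by
      apply LinearMap.ext
      intro y
      apply Φ.injective
      simp only [LinearMap.comp_apply, LinearEquiv.coe_coe, LinearEquiv.symm_symm, LinearEquiv.apply_symm_apply]
      rw [hx₀Φ]
      simp [L]
    rw [h2] at h1
    rw [h1, LinearMap.det_prodMap, LinearMap.det_id, mul_one, ← ha, Algebra.norm_apply]
    rfl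
  -- transport to `e`
  have hee : e * e = e := by
    calc e * e = e * (e₀ * e) := by rw [he2]
      _ = (e * e₀) * e := by noncomm_ring
      _ = e := by rw [he1, he2]
  set d := e - e₀ with hd
  have hd2 : d * d = 0 := by
    rw [hd]
    simp only [sub_mul, mul_sub, hee, he1, he2, h0]
    abel
  set u : Module.End F (Fin n → F) := 1 + d with hu
  set u' : Module.End F (Fin n → F) := 1 - d with hu'
  have huu : u * u' = 1 := by
    rw [hu, hu']
    simp only [add_mul, mul_sub, one_mul, mul_one, hd2]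
    abel
  have hu'u : u' * u = 1 := by
    rw [hu, hu']
    simp only [sub_mul, mul_add, one_mul, mul_one, hd2]
    abel
  set x : Module.End F (Fin n → F) := 1 - e + e * B with hx
  have hxeq : x = u' * x₀ * u := by
    have hBd : B * d = d * B := by
      rw [hd, mul_sub, sub_mul, hBe, hBe₀]
    have hBu : B * u = u * B := by
      rw [hu, mul_add, add_mul, hBd, mul_one, one_mul]
    have h1 : u' * e₀ * u = e := by
      rw [hu, hu', hd]
      simp only [sub_mul, mul_add, one_mul, mul_one, mul_sub, he1, he2, h0]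
      abel
    have h2 : x₀ = 1 - e₀ + e₀ * B := rfl
    calc x = (u' * u) - (u' * e₀ * u) + (u' * e₀ * u) * B := by rw [hu'u, h1]
      _ = u' * x₀ * u := by
        rw [h2]
        simp only [mul_add, add_mul, mul_sub, sub_mul, mul_one]
        congr 1
        calc u' * e₀ * u * B = u' * e₀ * (u * B) := by noncomm_ring
          _ = u' * e₀ * (B * u) := by rw [hBu]
          _ = u' * (e₀ * B) * u := by noncomm_ring
  have hdetuu : LinearMap.det u' * LinearMap.det u = 1 := by
    rw [← map_mul, hu'u, map_one]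
  have hdetx : LinearMap.det x = a₀ := by
    rw [hxeq, map_mul, map_mul, hdetx₀, mul_comm (LinearMap.det u') a₀, mul_assoc, hdetuu, mul_one]
  -- the inverse of `x`
  have hxu : IsUnit x := by
    rw [LinearMap.isUnit_iff_isUnit_det, hdetx]
    exact IsUnit.mk0 _ ha₀
  obtain ⟨xu, hxu'⟩ := hxu
  set x' : Module.End F (Fin n → F) := ((xu⁻¹ : (Module.End F (Fin n → F))ˣ) : Module.End F (Fin n → F)) with hx'
  have hxx' : x * x' = 1 := by
    rw [← hxu', hx']
    exact Units.mul_inv xu
  have hx'x : x' * x = 1 := by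
    rw [← hxu', hx']
    exact Units.inv_mul xu
  set w := adj hF x with hw
  set w' := adj hF x' with hw'
  have hww' : w * w' = 1 := by
    rw [hw, hw', ← adj_mul, hx'x, adj_one]
  have hw'w : w' * w = 1 := by
    rw [hw, hw', ← adj_mul, hxx', adj_one]
  have hadjw' : adj hF w' = x' := adj_adj hF x'
  -- commutations
  have hxT : x * T = T * x := by
    rw [hx]
    simp only [add_mul, mul_add, sub_mul, mul_sub, one_mul, mul_one]
    rw [heT, mul_assoc, ← hBT, ← mul_assoc, heT, mul_assoc]
  have hwT : w * T = T * w := adj_commute hF hT hT' hxT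
  have hw'T : w' * T = T * w' := by
    calc w' * T = w' * T * (w * w') := by rw [hww', mul_one]
      _ = w' * (T * w) * w' := by noncomm_ring
      _ = w' * (w * T) * w' := by rw [hwT]
      _ = (w' * w) * T * w' := by noncomm_ring
      _ = T * w' := by rw [hw'w, one_mul]
  have hxw : x * w = w * x := by
    -- `x = 1 + e * D`, `w = 1 + adj D * adj e`
    set D := B - 1 with hD
    have hx2 : x = 1 + e * D := by
      rw [hx, hD, mul_sub, mul_one]
      abel
    have hw2 : w = 1 + adj hF D * adj hF e := by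
      rw [hw, hx2, adj_add, adj_one, adj_mul]
    have hDT : D * T = T * D := by
      rw [hD, sub_mul, mul_sub, ← hBT, one_mul, mul_one]
    have hDe : e * D = D * e := by
      rw [hD, mul_sub, sub_mul, hBe, mul_one, one_mul]
    -- adjoints of `e` and of `D` commute with `T`, so with `B`
    have h1 : adj hF e * T = T * adj hF e := adj_commute hF hT hT' heT
    have h2 : adj hF D * T = T * adj hF D := adj_commute hF hT hT' hDT
    have h3 : adj hF e * B = B * adj hF e := commute_aeval _ T h1 P
    have h4 : adj hF D * B = B * adj hF D := commute_aeval _ T h2 P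
    have hY : ∀ Y, Y * B = B * Y → Y * D = D * Y := by
      intro Y h
      rw [hD, mul_sub, sub_mul, h, mul_one, one_mul]
    have h5 : adj hF e * D = D * adj hF e := hY _ h3
    have h6 : adj hF D * D = D * adj hF D := hY _ h4
    have h7 : adj hF D * e = e * adj hF D := by
      have := congrArg (adj hF) h5
      rw [adj_mul, adj_mul, adj_adj] at this
      exact this
    rw [hx2, hw2]
    have key : e * D * (adj hF D * adj hF e) = adj hF D * adj hF e * (e * D) := by
      calc e * D * (adj hF D * adj hF e) = e * (D * adj hF D) * adj hF e := by noncomm_ring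
        _ = e * (adj hF D * D) * adj hF e := by rw [h6]
        _ = (e * adj hF D) * (D * adj hF e) := by noncomm_ring
        _ = (adj hF D * e) * (adj hF e * D) := by rw [h7, h5]
        _ = adj hF D * (e * adj hF e) * D := by noncomm_ring
        _ = adj hF D * (adj hF e * e) * D := by rw [headj]
        _ = adj hF D * adj hF e * (e * D) := by noncomm_ring
    simp only [mul_add, add_mul, mul_one, one_mul]
    rw [key]
    abel
  refine ⟨x * w', ?_, ?_, ?_⟩
  · rw [mul_assoc, hw'T, ← mul_assoc, hxT, mul_assoc]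
  · rw [adj_mul, hadjw', ← hw]
    calc x' * w * (x * w') = x' * (w * x) * w' := by noncomm_ring
      _ = x' * (x * w) * w' := by rw [hxw]
      _ = (x' * x) * (w * w') := by noncomm_ring
      _ = 1 := by rw [hx'x, hww', one_mul]
  · rw [map_mul, hdetx, hw', det_adj]
    have h1 : LinearMap.det x' * a₀ = 1 := by
      rw [← hdetx, ← map_mul, hx'x, map_one]
    have h2 : LinearMap.det x' = a₀⁻¹ := eq_inv_of_mul_eq_one_left h1
    rw [h2, inv_pow]
    have h3 : a₀ ^ q ≠ 0 := pow_ne_zero _ ha₀
    field_simp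
    exact ha₀e

end Cfsg.Agent.Lib.SUConj.Det
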