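/-
Semisimple elements of `SU_n` with the same characteristic polynomial are conjugate.
-/
import Cfsg.Agent.Lib.SUConj.Det

set_option autoImplicit false
set_option linter.unusedSectionVars false

namespace Cfsg.Agent.Lib.SUConj.Main

open Polynomial Module
open Cfsg.Agent.Lib.HermCount.Field Cfsg.Agent.Lib.HermCount.Space Cfsg.Agent.Lib.HermCount.Lines
open Cfsg.Agent.Lib.SemiSimple.Basic Cfsg.Agent.Lib.SemiSimple.Mat Cfsg.Agent.Lib.SUConj.Adj
open Cfsg.Agent.Lib.SUConj.Det Cfsg.Agent.Lib.Wall.Polar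

variable {F : Type*} [Field F] [Fintype F] {q : ℕ} (hF : Fintype.card F = q ^ 2) {n : ℕ}

/-- The endomorphism of an element of `SU`. -/
noncomputable abbrev lin (g : ↥(Cfsg.SU n F q)) : Module.End F (Fin n → F) :=
  Matrix.toLin' (g.1.1 : Matrix (Fin n) (Fin n) F)

lemma lin_apply (g : ↥(Cfsg.SU n F q)) (x : Fin n → F) :
    lin g x = (g.1.1 : Matrix (Fin n) (Fin n) F).mulVec x := rfl

lemma adj_lin_mul (g : ↥(Cfsg.SU n F q)) : adj hF (lin g) * lin g = 1 :=
  adj_mul_self_of_isometry hF _ (fun x y => g.2 x y)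

lemma finite_end : Finite (Module.End F (Fin n → F)) :=
  Finite.of_injective (fun f : Module.End F (Fin n → F) => (f : (Fin n → F) → (Fin n → F)))
    (fun _ _ h => LinearMap.ext (fun x => congrFun h x))

/-- A unit of `End` admitting a norm from a commuting algebra: the polar step. -/
theorem exists_isometry_conj (Lg Lh C C' : Module.End F (Fin n → F))
    (hg : adj hF Lg * Lg = 1) (hh : adj hF Lh * Lh = 1) (hC1 : C * C' = 1) (hC2 : C' * C = 1) (hCg : C * Lg = Lh * C) :
    ∃ D : Module.End F (Fin n → F), adj hF D * D = 1 ∧ D * Lg = Lh * D := by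
  classical
  have : Finite (Module.End F (Fin n → F)) := finite_end
  have hg' : Lg * adj hF Lg = 1 := mul_eq_one_comm.1 hg
  have hh' : Lh * adj hF Lh = 1 := mul_eq_one_comm.1 hh
  set T₀ := adj hF C * C with hT₀
  have hfix : adj hF T₀ = T₀ := by
    rw [hT₀, adj_mul, adj_adj]
  have h1 : adj hF Lg * adj hF C = adj hF C * adj hF Lh := by
    rw [← adj_mul, ← adj_mul, hCg]
  have h2 : Lg * adj hF C = adj hF C * Lh := by
    calc Lg * adj hF C = Lg * (adj hF C * (adj hF Lh * Lh)) := by rw [hh, mul_one]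
      _ = Lg * ((adj hF C * adj hF Lh) * Lh) := by noncomm_ring
      _ = Lg * ((adj hF Lg * adj hF C) * Lh) := by rw [h1]
      _ = (Lg * adj hF Lg) * (adj hF C * Lh) := by noncomm_ring
      _ = adj hF C * Lh := by rw [hg', one_mul]
  have hT₀g : T₀ * Lg = Lg * T₀ := by
    rw [hT₀, mul_assoc, hCg, ← mul_assoc, ← h2, mul_assoc]
  let alg := algebraMap F (Module.End F (Fin n → F))
  let S : Set (Module.End F (Fin n → F)) := insert T₀ (Set.range alg)
  have hcomm : ∀ a ∈ S, ∀ b ∈ S, a * b = b * a := by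
    have hcent : ∀ (a : Module.End F (Fin n → F)) (c : F), a * alg c = alg c * a := fun a c => (Algebra.commutes c a).symm
    rintro a (rfl | ⟨c, rfl⟩) b (rfl | ⟨d, rfl⟩)
    · rfl
    · exact hcent _ _
    · exact (hcent _ _).symm
    · exact hcent _ _
  have hT₀S : T₀ ∈ Subring.closure S := Subring.subset_closure (Set.mem_insert _ _)
  have hscal : ∀ c : F, alg c ∈ Subring.closure S := fun c =>
    Subring.subset_closure (Set.mem_insert_of_mem _ ⟨c, rfl⟩)
  have hst : ∀ a ∈ S, adj hF a ∈ Subring.closure S := by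
    rintro a (rfl | ⟨c, rfl⟩)
    · rw [hfix]
      exact hT₀S
    · rw [adj_scalar]
      exact hscal _
  have hinv : ∀ a ∈ S, adj hF (adj hF a) = a := fun a _ => adj_adj hF a
  obtain ⟨c, hc⟩ := exists_trace hF (1 : F) (by simp)
  obtain ⟨w, hw⟩ := exists_frob_ne hF
  have hT₀u : IsUnit T₀ := by
    have h3 : (C' * adj hF C') * T₀ = 1 := by
      have h4 : adj hF C' * adj hF C = 1 := by
        rw [← adj_mul, hC1, adj_one]
      calc (C' * adj hF C') * T₀ = C' * (adj hF C' * adj hF C) * C := by rw [hT₀]; noncomm_ring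
        _ = 1 := by rw [h4, mul_one, hC2]
    exact IsUnit.of_mul_eq_one _ (mul_eq_one_comm.1 h3)
  obtain ⟨y, hyS, hy⟩ := exists_norm (adj_anti hF) hcomm hst hinv (c := alg c) (w := alg w) (hscal c)
    (by
      rw [adj_scalar, ← map_add, hc, map_one])
    (hscal w)
    (by
      rw [adj_scalar, ← map_sub]
      have h5 : w - w ^ q ≠ 0 := fun h => hw (sub_eq_zero.1 h).symm
      exact (IsUnit.mk0 _ h5).map alg)
    hT₀S hfix hT₀u
  -- `y` commutes with `Lg`
  have hyg : y * Lg = Lg * y := by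
    have hle : Subring.closure S ≤ Subring.centralizer {Lg} := by
      rw [Subring.closure_le]
      rintro a (rfl | ⟨d, rfl⟩)
      · rw [SetLike.mem_coe, Subring.mem_centralizer_iff]
        intro b hb
        rw [Set.mem_singleton_iff.1 hb]
        exact hT₀g.symm
      · rw [SetLike.mem_coe, Subring.mem_centralizer_iff]
        intro b hb
        exact (Algebra.commutes d b).symm
    have := (Subring.mem_centralizer_iff.1 (hle hyS)) Lg (Set.mem_singleton _)
    exact this.symm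
  obtain ⟨Tu, hTu⟩ := hT₀u
  set Ti : Module.End F (Fin n → F) := ((Tu⁻¹ : (Module.End F (Fin n → F))ˣ) : Module.End F (Fin n → F)) with hTi
  have hTi1 : Ti * T₀ = 1 := by
    rw [← hTu, hTi]
    exact Units.inv_mul Tu
  set yi := Ti * adj hF y with hyi
  have hyi1 : yi * y = 1 := by
    rw [hyi, mul_assoc, hy, hTi1]
  have hyi2 : y * yi = 1 := mul_eq_one_comm.1 hyi1
  have hyig : yi * Lg = Lg * yi := by
    calc yi * Lg = yi * Lg * (y * yi) := by rw [hyi2, mul_one]
      _ = yi * (Lg * y) * yi := by noncomm_ring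
      _ = yi * (y * Lg) * yi := by rw [hyg]
      _ = (yi * y) * Lg * yi := by noncomm_ring
      _ = Lg * yi := by rw [hyi1, one_mul]
  refine ⟨C * yi, ?_, ?_⟩
  · rw [adj_mul]
    have h6 : adj hF yi * adj hF y = 1 := by
      rw [← adj_mul, hyi2, adj_one]
    calc adj hF yi * adj hF C * (C * yi) = adj hF yi * T₀ * yi := by rw [hT₀]; noncomm_ring
      _ = adj hF yi * (adj hF y * y) * yi := by rw [hy]
      _ = (adj hF yi * adj hF y) * (y * yi) := by noncomm_ring
      _ = 1 := by rw [h6, hyi2, one_mul]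
  · rw [mul_assoc, hyig, ← mul_assoc, hCg, mul_assoc]

/-- Conjugacy in `SU_n`. -/
theorem isConj_SU (hF : Fintype.card F = q ^ 2) (g h : ↥(Cfsg.SU n F q)) (hgs : IsSS (lin g)) (hhs : IsSS (lin h))
    (hc : (g.1.1 : Matrix (Fin n) (Fin n) F).charpoly = (h.1.1 : Matrix (Fin n) (Fin n) F).charpoly) : IsConj g h := by
  classical
  by_cases hn : n = 0
  · subst hn
    have : Subsingleton ↥(Cfsg.SU 0 F q) := by
      refine ⟨fun a b => Subtype.ext (Subtype.ext ?_)⟩
      ext i
      exact i.elim0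
    rw [Subsingleton.elim g h]
  have : Nontrivial (Fin n → F) := by
    have : Nonempty (Fin n) := ⟨⟨0, by omega⟩⟩
    infer_instance
  obtain ⟨c, hc1⟩ := exists_conj_GL (Matrix.SpecialLinearGroup.toGL g.1) (Matrix.SpecialLinearGroup.toGL h.1) hgs hhs hc
  have hc2 : c.1 * (g.1.1 : Matrix (Fin n) (Fin n) F) = (h.1.1 : Matrix (Fin n) (Fin n) F) * c.1 := congrArg Units.val hc1
  set C : Module.End F (Fin n → F) := Matrix.toLin' c.1 with hC
  set C' : Module.End F (Fin n → F) := Matrix.toLin' (c⁻¹).1 with hC'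
  have h1 : C * C' = 1 := by
    rw [hC, hC', Module.End.mul_eq_comp, ← Matrix.toLin'_mul, ← Units.val_mul, mul_inv_cancel, Units.val_one, Matrix.toLin'_one]
    rfl
  have h2 : C' * C = 1 := mul_eq_one_comm.1 h1
  have h3 : C * lin g = lin h * C := by
    rw [hC, Module.End.mul_eq_comp, ← Matrix.toLin'_mul, hc2, Matrix.toLin'_mul]
    rfl
  obtain ⟨D, hD1, hD2⟩ := exists_isometry_conj hF (lin g) (lin h) C C' (adj_lin_mul hF g) (adj_lin_mul hF h) h1 h2 h3
  -- fix the determinant
  set δ := LinearMap.det D with hδ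
  have hδ1 : δ ^ (q + 1) = 1 := by
    rw [pow_succ, hδ, ← det_adj hF, ← map_mul, hD1, map_one]
  have hδ0 : δ ≠ 0 := by
    intro h0
    rw [h0, zero_pow (by omega)] at hδ1
    exact zero_ne_one hδ1
  obtain ⟨z, hz1, hz2, hz3⟩ := exists_unitary_det hF (lin g) (adj_lin_mul hF g) hgs δ⁻¹ (by
    rw [inv_pow, hδ1, inv_one])
  have hd1 : adj hF (D * z) * (D * z) = 1 := by
    rw [adj_mul]
    calc adj hF z * adj hF D * (D * z) = adj hF z * (adj hF D * D) * z := by noncomm_ring
      _ = 1 := by rw [hD1, mul_one, hz2]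
  have hd2 : LinearMap.det (D * z) = 1 := by
    rw [map_mul, hz3, ← hδ, mul_inv_cancel₀ hδ0]
  have hd3 : (D * z) * lin g = lin h * (D * z) := by
    rw [mul_assoc, hz1, ← mul_assoc, hD2, mul_assoc]
  obtain ⟨u, hu⟩ := Cfsg.Agent.Lib.SUSpec.HermAlg.su_of_isometry hF (D * z) (isometry_of_adj_mul_self hF _ hd1) hd2
  rw [isConj_iff]
  refine ⟨u, ?_⟩
  rw [mul_inv_eq_iff_eq_mul]
  apply Subtype.ext
  apply Subtype.ext
  apply Matrix.mulVec_injective
  funext x
  show ((u.1.1 : Matrix (Fin n) (Fin n) F) * (g.1.1 : Matrix (Fin n) (Fin n) F)).mulVec x =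
    ((h.1.1 : Matrix (Fin n) (Fin n) F) * (u.1.1 : Matrix (Fin n) (Fin n) F)).mulVec x
  rw [← Matrix.mulVec_mulVec, ← Matrix.mulVec_mulVec, hu, hu]
  exact LinearMap.congr_fun hd3 x

/-- Elements of order prime to the characteristic are semisimple. -/
lemma isSS_of_coprime_SU (p : ℕ) [Fact p.Prime] [CharP F p] (g : ↥(Cfsg.SU n F q)) (hg : (orderOf g).Coprime p) :
    IsSS (lin g) := by
  rw [isSS_iff]
  have hm0 : orderOf g ≠ 0 := (orderOf_pos g).ne'
  have hcast : ((orderOf g : ℕ) : F) ≠ 0 := by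
    intro h
    have h1 := (CharP.cast_eq_zero_iff F p (orderOf g)).1 h
    have h2 : p ∣ Nat.gcd (orderOf g) p := Nat.dvd_gcd h1 dvd_rfl
    rw [hg] at h2
    exact (Fact.out : p.Prime).one_lt.ne' (Nat.dvd_one.1 h2)
  refine ⟨Polynomial.X ^ (orderOf g) - 1, ?_, ?_⟩
  · have hsep : (Polynomial.X ^ (orderOf g) - C (1 : F)).Separable := Polynomial.separable_X_pow_sub_C 1 hcast one_ne_zero
    rw [C_1] at hsep
    exact hsep.squarefree
  · have h1 : g ^ orderOf g = 1 := pow_orderOf_eq_one g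
    have h2 := congrArg (fun x : ↥(Cfsg.SU n F q) => (x.1.1 : Matrix (Fin n) (Fin n) F)) h1
    simp only [OneMemClass.coe_one, Matrix.SpecialLinearGroup.coe_one, SubmonoidClass.coe_pow, Matrix.SpecialLinearGroup.coe_pow] at h2
    simp [h2]

end Cfsg.Agent.Lib.SUConj.Main
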