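/-
Every self-dual monic polynomial is the characteristic polynomial of an isometry of a Hermitian space.
-/
import Cfsg.Agent.Lib.SUConj.Main

set_option autoImplicit false
set_option linter.unusedSectionVars false

namespace Cfsg.Agent.Lib.SUConj.Exist

open Polynomial Module
open Cfsg.Agent.Lib.HermCount.Field Cfsg.Agent.Lib.HermCount.Space Cfsg.Agent.Lib.HermCount.Lines
open Cfsg.Agent.Lib.SemiSimple.Basic Cfsg.Agent.Lib.SemiSimple.Mat Cfsg.Agent.Lib.SUConj.Adj
open Cfsg.Agent.Lib.SUSpec.Dag Cfsg.Agent.Lib.SUSpec.HermAlg Cfsg.Agent.Lib.SpSpec.Recip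

universe u

variable {F : Type u} [Field F] [Fintype F] {q : ℕ} (hF : Fintype.card F = q ^ 2)

include hF in
lemma dag_mul {f g : F[X]} (hf : f.coeff 0 ≠ 0) (hg : g.coeff 0 ≠ 0) :
    dag hF (f * g) = dag hF f * dag hF g := by
  unfold dag pstar
  rw [Polynomial.map_mul, reverse_mul_of_domain, mul_coeff_zero, mul_inv, C_mul]
  ring

include hF in
lemma dag_dag {f : F[X]} (hm : f.Monic) (h0 : f.coeff 0 ≠ 0) : dag hF (dag hF f) = f := by
  have h1 := reverse_map_dag hF h0
  have hd0 : (dag hF f).coeff 0 ≠ 0 := dag_coeff_zero_ne hF hm h0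
  have h2 := reverse_map_eq hF hd0
  rw [h1] at h2
  have hm2 : (dag hF (dag hF f)).Monic := dag_monic hF hd0
  have hc : (dag hF f).coeff 0 ^ q ≠ 0 := pow_ne_zero _ hd0
  have h3 := congrArg leadingCoeff h2
  rw [leadingCoeff_mul, leadingCoeff_mul, leadingCoeff_C, leadingCoeff_C, hm.leadingCoeff, hm2.leadingCoeff,
    mul_one, mul_one] at h3
  rw [h3] at h2
  have h4 : IsUnit (C ((dag hF f).coeff 0 ^ q) : F[X]) := (IsUnit.mk0 _ hc).map C
  exact (h4.mul_left_cancel h2).symm

/-- Existence of an isometry with given characteristic polynomial. -/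
def HasIso (q : ℕ) (f : F[X]) : Prop :=
  ∃ (V : Type u) (_ : AddCommGroup V) (_ : Module F V) (_ : Module.Finite F V) (h : V → V → F) (_ : HSpace q h)
    (T : V →ₗ[F] V), (∀ x y, h (T x) (T y) = h x y) ∧ LinearMap.charpoly T = f

include hF in
/-- Orthogonal sums. -/
lemma HasIso.mul {f g : F[X]} (hf : HasIso q f) (hg : HasIso q g) : HasIso q (f * g) := by
  obtain ⟨V₁, _, _, _, h₁, S₁, T₁, hT₁, hc₁⟩ := hf
  obtain ⟨V₂, _, _, _, h₂, S₂, T₂, hT₂, hc₂⟩ := hg
  refine ⟨V₁ × V₂, inferInstance, inferInstance, inferInstance, fun x y => h₁ x.1 y.1 + h₂ x.2 y.2, ?_,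
    T₁.prodMap T₂, ?_, ?_⟩
  · refine ⟨?_, ?_, ?_, ?_⟩
    · intro x y z
      simp only [Prod.fst_add, Prod.snd_add, S₁.add_left, S₂.add_left]
      ring
    · intro a x z
      simp only [Prod.smul_fst, Prod.smul_snd, S₁.smul_left, S₂.smul_left]
      ring
    · intro x y
      show h₁ y.1 x.1 + h₂ y.2 x.2 = (h₁ x.1 y.1 + h₂ x.2 y.2) ^ q
      rw [frob_add hF, ← S₁.conj, ← S₂.conj]
    · intro x hx
      apply Prod.ext
      · apply S₁.nd
        intro y
        have := hx (y, 0)
        simpa [S₂.zero_right hF] using this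
      · apply S₂.nd
        intro y
        have := hx (0, y)
        simpa [S₁.zero_right hF] using this
  · intro x y
    simp only [LinearMap.prodMap_apply, hT₁, hT₂]
  · rw [LinearMap.charpoly_prodMap, hc₁, hc₂]

include hF in
lemma hasIso_one : HasIso q (1 : F[X]) := by
  refine ⟨PUnit.{u + 1}, inferInstance, inferInstance, inferInstance, fun _ _ => 0, ⟨?_, ?_, ?_, ?_⟩, 0, ?_, ?_⟩
  · intro x y z
    simp
  · intro a x z
    simp
  · intro x y
    rw [zero_pow]
    have := two_le hF
    omega
  · intro x _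
    exact Subsingleton.elim _ _
  · intro x y
    rfl
  · have h1 : (LinearMap.charpoly (0 : PUnit.{u + 1} →ₗ[F] PUnit.{u + 1})).natDegree = 0 := by
      rw [LinearMap.charpoly_natDegree]
      exact Module.finrank_zero_of_subsingleton
    exact (LinearMap.charpoly_monic _).natDegree_eq_zero.1 h1

/-- The Hermitian block of a self-dual irreducible polynomial. -/
lemma hasIso_self (p : ℕ) [Fact p.Prime] [CharP F p] {a : ℕ} (hq : q = p ^ a) {π : F[X]} (hπ : Irreducible π)
    (hm : π.Monic) (h0 : π.coeff 0 ≠ 0) (hself : dag hF π = π) : HasIso q π := by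
  classical
  obtain ⟨hodd, hdvd⟩ := selfdag_dvd p hF hq hπ hm h0 hself
  have : Fact (Irreducible π) := ⟨hπ⟩
  let K := AdjoinRoot π
  have hmf : Module.Finite F K := hm.finite_adjoinRoot
  have hfin : Finite K := Module.finite_of_finite F
  have hCh : CharP K p := charP_of_injective_algebraMap (algebraMap F K).injective p
  set d := π.natDegree with hd
  have hfr : finrank F K = d := by
    rw [PowerBasis.finrank (AdjoinRoot.powerBasis hπ.ne_zero)]
    simp [AdjoinRoot.powerBasis_dim, hd]
  let _ : Fintype K := Fintype.ofFinite K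
  have hcard : Fintype.card K = q ^ (2 * d) := by
    rw [← hfr, Module.card_eq_pow_finrank (K := F) (V := K), hF, ← pow_mul]
  have hqd : q ^ d = p ^ (a * d) := by rw [hq, pow_mul]
  let σ : K →+* K := iterateFrobenius K p (a * d)
  have hσ : ∀ x : K, σ x = x ^ (q ^ d) := fun x => by
    simp only [σ]
    rw [iterateFrobenius_def, ← hqd]
  have hH : IsHermAlg q σ (Algebra.trace F K) := by
    refine ⟨?_, ?_, ?_⟩
    · intro f
      rw [hσ, hσ, ← pow_mul, ← pow_add, ← two_mul, ← hcard]
      exact FiniteField.pow_card f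
    · intro f
      simp only [σ]
      rw [iterateFrobenius_def, trace_pow_char p, ← hqd, pow_odd_eq hF hodd]
    · intro f hf
      have hnd := traceForm_nondegenerate F K
      have hrefl : (Algebra.traceForm F K).IsRefl := (Algebra.traceForm_isSymm F).isRefl
      have hL := (LinearMap.IsRefl.nondegenerate_iff_separatingLeft hrefl).1 hnd
      apply hL
      intro g
      simpa [Algebra.traceForm_apply] using hf g
  let x : K := AdjoinRoot.root π
  have hx : x * σ x = 1 := by
    rw [hσ, ← pow_succ']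
    have h3 := AdjoinRoot.mk_eq_zero.2 hdvd
    rw [map_sub, map_pow, AdjoinRoot.mk_X, map_one, sub_eq_zero] at h3
    exact h3
  refine ⟨K, inferInstance, inferInstance, hmf, _, hH.hspace, rootMul π, ?_, charpoly_rootMul hm⟩
  intro f g
  show Algebra.trace F K (rootMul π f * σ (rootMul π g)) = Algebra.trace F K (f * σ g)
  congr 1
  rw [rootMul_apply, rootMul_apply, map_mul]
  calc AdjoinRoot.root π * f * (σ (AdjoinRoot.root π) * σ g) = (x * σ x) * (f * σ g) := by ring
    _ = _ := by rw [hx, one_mul]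

/-- The characteristic polynomial of the inverse adjoint. -/
lemma charpoly_adj_inv {d : ℕ} (g : GL (Fin d) F) :
    (adjM hF (g⁻¹).1).charpoly = dag hF g.1.charpoly := by
  classical
  set M := adjM hF g.1 with hM
  have h1 : M * adjM hF (g⁻¹).1 = 1 := by
    rw [hM, ← adjM_mul, ← Units.val_mul, inv_mul_cancel, Units.val_one, adjM_one]
  have hu : IsUnit M := IsUnit.of_mul_eq_one _ h1
  have h2 : M⁻¹ = adjM hF (g⁻¹).1 := Matrix.inv_eq_right_inv h1
  have h3 := Matrix.charpoly_inv M hu
  rw [h2] at h3
  have h4 : M.charpoly = g.1.charpoly.map (frobHom hF) := by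
    rw [hM]
    unfold adjM
    rw [Matrix.charpoly_transpose, Matrix.charpoly_map]
  have hc0 : g.1.charpoly.coeff 0 ≠ 0 := by
    have h5 := Matrix.det_eq_sign_charpoly_coeff g.1
    have hdet : g.1.det ≠ 0 := ((Matrix.isUnit_iff_isUnit_det _).1 g.isUnit).ne_zero
    intro h6
    rw [h6, mul_zero] at h5
    exact hdet h5
  rw [← Matrix.reverse_charpoly, h4, reverse_map_eq hF hc0] at h3
  have h5 : (-1 : F[X]) ^ Fintype.card (Fin d) * C (Ring.inverse M.det) * (C (g.1.charpoly.coeff 0 ^ q) * dag hF g.1.charpoly) =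
      C ((-1) ^ Fintype.card (Fin d) * Ring.inverse M.det * g.1.charpoly.coeff 0 ^ q) * dag hF g.1.charpoly := by
    simp only [C_mul, C_pow, C_neg, C_1]
    ring
  rw [h5] at h3
  have hm1 : (adjM hF (g⁻¹).1).charpoly.Monic := Matrix.charpoly_monic _
  have hm2 : (dag hF g.1.charpoly).Monic := dag_monic hF hc0
  have h6 := congrArg leadingCoeff h3
  rw [hm1.leadingCoeff, leadingCoeff_mul, leadingCoeff_C, hm2.leadingCoeff, mul_one] at h6
  rw [h3, ← h6, C_1, one_mul]

/-- The hyperbolic block. -/
lemma hasIso_hyper {ρ : F[X]} (hm : ρ.Monic) (h0 : ρ.coeff 0 ≠ 0) : HasIso q (ρ * dag hF ρ) := by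
  classical
  obtain ⟨d, hd⟩ : ∃ d, ρ.natDegree = d := ⟨_, rfl⟩
  obtain ⟨g, hg, -⟩ := exists_GL_of_monic ρ hm hd h0
  have S := herm_space (F := F) (q := q) d hF
  set A : Module.End F (Fin d → F) := Matrix.toLin' g.1 with hA
  set A' : Module.End F (Fin d → F) := Matrix.toLin' (g⁻¹).1 with hA'
  have hAA' : A' * A = 1 := by
    rw [hA, hA', Module.End.mul_eq_comp, ← Matrix.toLin'_mul, ← Units.val_mul, inv_mul_cancel, Units.val_one, Matrix.toLin'_one]
    rfl
  set B := adj hF A' with hB
  have hcB : LinearMap.charpoly B = dag hF ρ := by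
    have h1 : B = Matrix.toLin' (adjM hF (g⁻¹).1) := by
      rw [hB, adj, hA']
      simp
    rw [h1, Matrix.charpoly_toLin', charpoly_adj_inv, hg]
  have hcA : LinearMap.charpoly A = ρ := by
    rw [hA, Matrix.charpoly_toLin', hg]
  refine ⟨(Fin d → F) × (Fin d → F), inferInstance, inferInstance, inferInstance,
    fun x y => Cfsg.hermForm d F q x.1 y.2 + Cfsg.hermForm d F q x.2 y.1, ?_, A.prodMap B, ?_, ?_⟩
  · refine ⟨?_, ?_, ?_, ?_⟩
    · intro x y z
      simp only [Prod.fst_add, Prod.snd_add, S.add_left]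
      ring
    · intro a x z
      simp only [Prod.smul_fst, Prod.smul_snd, S.smul_left]
      ring
    · intro x y
      show Cfsg.hermForm d F q y.1 x.2 + Cfsg.hermForm d F q y.2 x.1 =
        (Cfsg.hermForm d F q x.1 y.2 + Cfsg.hermForm d F q x.2 y.1) ^ q
      rw [frob_add hF, ← S.conj, ← S.conj, add_comm]
    · intro x hx
      apply Prod.ext
      · apply S.nd
        intro y
        have := hx (0, y)
        simpa [S.zero_right hF] using this
      · apply S.nd
        intro y
        have := hx (y, 0)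
        simpa [S.zero_right hF] using this
  · intro x y
    show Cfsg.hermForm d F q (A x.1) (B y.2) + Cfsg.hermForm d F q (B x.2) (A y.1) =
      Cfsg.hermForm d F q x.1 y.2 + Cfsg.hermForm d F q x.2 y.1
    have h2 : adj hF A * B = 1 := by
      rw [hB, ← adj_mul, hAA', adj_one]
    have h3 : ∀ v, adj hF A (B v) = v := fun v => LinearMap.congr_fun h2 v
    have h4 : ∀ v, A' (A v) = v := fun v => LinearMap.congr_fun hAA' v
    congr 1
    · rw [herm_adj hF, h3]
    · rw [hB, herm_adj' hF, h4]
  · rw [LinearMap.charpoly_prodMap, hcA, hcB]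

/-- Every self-dual polynomial has an isometry. -/
theorem hasIso_of_selfdual (p : ℕ) [Fact p.Prime] [CharP F p] {a : ℕ} (hq : q = p ^ a) :
    ∀ (n : ℕ) (f : F[X]), f.Monic → f.natDegree = n → f.coeff 0 ≠ 0 → dag hF f = f → HasIso q f := by
  intro n
  induction n using Nat.strong_induction_on with
  | _ n ih =>
    intro f hm hn h0 hself
    by_cases hu : IsUnit f
    · rw [hm.eq_one_of_isUnit hu]
      exact hasIso_one hF
    obtain ⟨π₀, hπ₀, hdvd⟩ := WfDvdMonoid.exists_irreducible_factor hu hm.ne_zero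
    obtain ⟨π, hπm, hπ, hπ1, _⟩ := Cfsg.Agent.Lib.SemiSimple.Commuting.exists_monic_assoc hπ₀
    obtain ⟨g, hg⟩ := hπ1.trans hdvd
    have hg0 : g ≠ 0 := by
      rintro rfl
      rw [mul_zero] at hg
      exact hm.ne_zero hg
    have hπ0 : π.coeff 0 ≠ 0 := by
      intro h
      apply h0
      rw [hg, mul_coeff_zero, h, zero_mul]
    have hg00 : g.coeff 0 ≠ 0 := by
      intro h
      apply h0
      rw [hg, mul_coeff_zero, h, mul_zero]
    have hgm : g.Monic := by
      apply hπm.of_mul_monic_left
      rw [← hg]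
      exact hm
    have hdegf : f.natDegree = π.natDegree + g.natDegree := by
      rw [hg, natDegree_mul hπ.ne_zero hg0]
    have hdπ := hπ.natDegree_pos
    by_cases hs : dag hF π = π
    · have h1 : π * dag hF g = π * g := by
        have := dag_mul hF hπ0 hg00
        rw [← hg, hself, hs] at this
        rw [← this, hg]
      have h2 : dag hF g = g := mul_left_cancel₀ hπ.ne_zero h1
      have h3 := ih g.natDegree (by omega) g hgm rfl hg00 h2
      rw [hg]
      exact (hasIso_self hF p hq hπ hπm hπ0 hs).mul hF h3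
    · have hmd := dag_monic hF hπ0
      have hirrd := dag_irreducible hF hπ hπ0
      have hd1 : dag hF π ∣ f := by
        have := dag_mul hF hπ0 hg00
        rw [← hg, hself] at this
        rw [this]
        exact dvd_mul_right _ _
      have hrel : IsRelPrime π (dag hF π) := by
        rw [hπ.isRelPrime_iff_not_dvd]
        intro h
        exact hs (eq_of_monic_of_associated hmd hπm (hπ.associated_of_dvd hirrd h).symm)
      have hprod : π * dag hF π ∣ f := hrel.isCoprime.mul_dvd ⟨g, hg⟩ hd1
      obtain ⟨k, hk⟩ := hprod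
      have hk0 : k ≠ 0 := by
        rintro rfl
        rw [mul_zero] at hk
        exact hm.ne_zero hk
      have hmm : (π * dag hF π).Monic := hπm.mul hmd
      have hkm : k.Monic := by
        apply hmm.of_mul_monic_left
        rw [← hk]
        exact hm
      have hk00 : k.coeff 0 ≠ 0 := by
        intro h
        apply h0
        rw [hk, mul_coeff_zero, h, mul_zero]
      have hd0 : (dag hF π).coeff 0 ≠ 0 := dag_coeff_zero_ne hF hπm hπ0
      have hdd := dag_natDegree hF hπ0
      have h4 : dag hF (π * dag hF π) = π * dag hF π := by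
        rw [dag_mul hF hπ0 hd0, dag_dag hF hπm hπ0, mul_comm]
      have h5 : (π * dag hF π) * dag hF k = (π * dag hF π) * k := by
        have h6 := dag_mul hF (f := π * dag hF π) (g := k) (by
          rw [mul_coeff_zero]
          exact mul_ne_zero hπ0 hd0) hk00
        rw [← hk, hself, h4] at h6
        rw [← h6, hk]
      have h7 : dag hF k = k := mul_left_cancel₀ hmm.ne_zero h5
      have hdegk : f.natDegree = 2 * π.natDegree + k.natDegree := by
        rw [hk, natDegree_mul hmm.ne_zero hk0, natDegree_mul hπm.ne_zero hmd.ne_zero, hdd]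
        omega
      have h8 := ih k.natDegree (by omega) k hkm rfl hk00 h7
      rw [hk]
      exact (hasIso_hyper hF hπm hπ0).mul hF h8

end Cfsg.Agent.Lib.SUConj.Exist
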