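/-
The number of conjugacy classes of `p`-regular elements of `SU_n(q)`.
-/
import Cfsg.Agent.Lib.SUConj.Exist

set_option autoImplicit false
set_option linter.unusedSectionVars false

namespace Cfsg.Agent.Lib.SUConj.Count

open Polynomial Module
open Cfsg.Agent.Lib.HermCount.Field Cfsg.Agent.Lib.HermCount.Space
open Cfsg.Agent.Lib.SemiSimple.Basic Cfsg.Agent.Lib.SemiSimple.Mat Cfsg.Agent.Lib.SUConj.Adj
open Cfsg.Agent.Lib.SUSpec.Dag Cfsg.Agent.Lib.SUSpec.HermAlg Cfsg.Agent.Lib.SpSpec.Recip
open Cfsg.Agent.Lib.SUConj.Exist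

universe u

variable {F : Type u} [Field F] [Fintype F] {q : ℕ} (hF : Fintype.card F = q ^ 2)

/-- Fixed points of a semilinear involution: Galois descent in numbers. -/
theorem card_fix_sq (hF : Fintype.card F = q ^ 2) {V : Type*} [AddCommGroup V] [Module F V] [Finite V] (ι : V → V)
    (hadd : ∀ x y, ι (x + y) = ι x + ι y) (hinv : ∀ x, ι (ι x) = x) (hsmul : ∀ (c : F) x, ι (c • x) = c ^ q • ι x) :
    Nat.card {v : V // ι v = v} ^ 2 = Nat.card V := by
  classical
  obtain ⟨c, hc⟩ := exists_trace hF (1 : F) (by simp)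
  obtain ⟨b, hb⟩ := exists_frob_ne hF
  set w := b - b ^ q with hw
  have hw0 : w ≠ 0 := fun h => hb (sub_eq_zero.1 h).symm
  have hwq : w ^ q = - w := by
    have h1 : frobHom hF (b - b ^ q) = frobHom hF b - frobHom hF (b ^ q) := map_sub _ _ _
    simp only [frobHom_apply] at h1
    rw [hw, h1, frob_frob hF]
    ring
  let φ : V →+ V := AddMonoidHom.mk' (fun x => x + ι x) (by
    intro x y
    rw [hadd]
    abel)
  have hφ : ∀ x, φ x = x + ι x := fun _ => rfl
  have hneg : ∀ x, ι (-x) = - ι x := by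
    intro x
    have h1 := hadd x (-x)
    have h0 : ι 0 = 0 := by
      have h2 := hadd 0 0
      rw [add_zero] at h2
      exact left_eq_add.1 h2
    rw [add_neg_cancel, h0] at h1
    exact eq_neg_of_add_eq_zero_right h1.symm
  -- range
  have hr : ∀ v, v ∈ φ.range ↔ ι v = v := by
    intro v
    constructor
    · rintro ⟨x, rfl⟩
      rw [hφ, hadd, hinv, add_comm]
    · intro hv
      refine ⟨c • v, ?_⟩
      rw [hφ, hsmul, hv, ← add_smul, hc, one_smul]
  -- kernel
  have hk : ∀ x, x ∈ φ.ker ↔ ι x = - x := by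
    intro x
    rw [AddMonoidHom.mem_ker, hφ]
    constructor
    · intro h
      exact eq_neg_of_add_eq_zero_right h
    · intro h
      rw [h, add_neg_cancel]
  have e1 : Nat.card φ.range = Nat.card {v : V // ι v = v} :=
    Nat.card_congr (Equiv.subtypeEquivRight hr)
  have e2 : Nat.card φ.ker = Nat.card {v : V // ι v = v} := by
    apply Nat.card_congr
    refine { toFun := fun x => ⟨w • x.1, ?_⟩, invFun := fun v => ⟨w⁻¹ • v.1, ?_⟩, left_inv := ?_, right_inv := ?_ }
    · rw [hsmul, hwq, (hk _).1 x.2, neg_smul, smul_neg, neg_neg]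
    · rw [hk, hsmul, v.2, ← frobHom_apply hF, map_inv₀, frobHom_apply, hwq, inv_neg, neg_smul]
    · intro x
      apply Subtype.ext
      simp [smul_smul, hw0]
    · intro v
      apply Subtype.ext
      simp [smul_smul, hw0]
  have h3 := AddSubgroup.card_mul_index φ.ker
  rw [AddSubgroup.index_ker, e1, e2] at h3
  rw [sq, h3]

variable (n : ℕ)

/-- Self-dual polynomials of determinant one. -/
def SelfP (f : F[X]) : Prop := f.Monic ∧ f.natDegree = n ∧ f.coeff 0 = (-1) ^ n ∧ dag hF f = f

include hF in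
lemma eps_frob : ((-1 : F) ^ n) ^ q = (-1) ^ n := by
  have h1 : frobHom hF ((-1 : F) ^ n) = (frobHom hF (-1)) ^ n := map_pow _ _ _
  have h2 : frobHom hF (-1 : F) = -1 := by
    rw [map_neg, map_one]
  rw [h2] at h1
  exact h1

lemma eps_sq : ((-1 : F) ^ n) * ((-1 : F) ^ n) = 1 := by
  rw [← mul_pow]
  simp

/-- The self-duality in terms of coefficients. -/
lemma reverse_of_selfP {f : F[X]} (h : SelfP hF n f) : (f.map (frobHom hF)).reverse = C ((-1) ^ n) * f := by
  have h0 : f.coeff 0 ≠ 0 := by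
    rw [h.2.2.1]
    exact pow_ne_zero _ (by simp)
  rw [reverse_map_eq hF h0, h.2.2.2, h.2.2.1, eps_frob hF]

lemma selfP_of_reverse {f : F[X]} (hm : f.Monic) (hn : f.natDegree = n) (h0 : f.coeff 0 = (-1) ^ n)
    (h : (f.map (frobHom hF)).reverse = C ((-1) ^ n) * f) : SelfP hF n f := by
  refine ⟨hm, hn, h0, ?_⟩
  have h00 : f.coeff 0 ≠ 0 := by
    rw [h0]
    exact pow_ne_zero _ (by simp)
  rw [reverse_map_eq hF h00, h0, eps_frob hF] at h
  have hu : IsUnit (C ((-1 : F) ^ n) : F[X]) := (IsUnit.mk0 _ (pow_ne_zero _ (by simp))).map C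
  exact hu.mul_left_cancel h

/-- Coefficients of a self-dual polynomial. -/
lemma coeff_selfP {f : F[X]} (h : SelfP hF n f) {k : ℕ} (hk : k ≤ n) :
    f.coeff k = (-1) ^ n * (f.coeff (n - k)) ^ q := by
  have h1 := congrArg (fun g : F[X] => g.coeff k) (reverse_of_selfP hF n h)
  simp only [coeff_reverse, coeff_C_mul, natDegree_map, coeff_map, frobHom_apply, h.2.1, revAt_le hk] at h1
  rw [h1, ← mul_assoc, eps_sq, one_mul]

/-- The polynomial with given middle coefficients. -/
noncomputable def polyA (a : Fin (n - 1) → F) : F[X] :=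
  X ^ n + C ((-1) ^ n) + ∑ j : Fin (n - 1), C (a j) * X ^ ((j : ℕ) + 1)

lemma polyA_coeff_mid (hn : 1 ≤ n) (a : Fin (n - 1) → F) (j : Fin (n - 1)) :
    (polyA n a).coeff ((j : ℕ) + 1) = a j := by
  classical
  have hj := j.2
  unfold polyA
  rw [coeff_add, coeff_add, finsetSum_coeff, Finset.sum_eq_single j]
  · rw [coeff_X_pow, if_neg (by omega), coeff_C, if_neg (by omega)]
    simp
  · intro i _ hi
    rw [coeff_C_mul, coeff_X_pow, if_neg, mul_zero]
    intro h
    apply hi
    apply Fin.ext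
    omega
  · simp

lemma polyA_coeff_zero (hn : 1 ≤ n) (a : Fin (n - 1) → F) : (polyA n a).coeff 0 = (-1) ^ n := by
  unfold polyA
  rw [coeff_add, coeff_add, finsetSum_coeff, coeff_X_pow, if_neg (by omega), coeff_C, if_pos rfl]
  simp [coeff_X_pow]

lemma polyA_coeff_top (hn : 1 ≤ n) (a : Fin (n - 1) → F) : (polyA n a).coeff n = 1 := by
  unfold polyA
  rw [coeff_add, coeff_add, finsetSum_coeff, coeff_X_pow, if_pos rfl, coeff_C, if_neg (by omega)]
  rw [Finset.sum_eq_zero]
  · simp
  · intro j _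
    rw [coeff_C_mul, coeff_X_pow, if_neg, mul_zero]
    have := j.2
    omega

lemma polyA_coeff_large (hn : 1 ≤ n) (a : Fin (n - 1) → F) {k : ℕ} (hk : n < k) : (polyA n a).coeff k = 0 := by
  unfold polyA
  rw [coeff_add, coeff_add, finsetSum_coeff, coeff_X_pow, if_neg (by omega), coeff_C, if_neg (by omega)]
  rw [Finset.sum_eq_zero]
  · simp
  · intro j _
    rw [coeff_C_mul, coeff_X_pow, if_neg, mul_zero]
    have := j.2
    omega

lemma polyA_natDegree (hn : 1 ≤ n) (a : Fin (n - 1) → F) : (polyA n a).natDegree = n := by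
  apply natDegree_eq_of_le_of_coeff_ne_zero
  · rw [natDegree_le_iff_coeff_eq_zero]
    intro k hk
    exact polyA_coeff_large n hn a hk
  · rw [polyA_coeff_top n hn]
    exact one_ne_zero

lemma polyA_monic (hn : 1 ≤ n) (a : Fin (n - 1) → F) : (polyA n a).Monic := by
  unfold Monic leadingCoeff
  rw [polyA_natDegree n hn, polyA_coeff_top n hn]

/-- The involution on coefficient vectors. -/
noncomputable def invo (q : ℕ) (a : Fin (n - 1) → F) : Fin (n - 1) → F :=
  fun j => (-1) ^ n * (a (Fin.rev j)) ^ q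

lemma polyA_selfP (hn : 1 ≤ n) (a : Fin (n - 1) → F) (ha : invo n q a = a) : SelfP hF n (polyA n a) := by
  classical
  apply selfP_of_reverse hF n (polyA_monic n hn a) (polyA_natDegree n hn a) (polyA_coeff_zero n hn a)
  ext k
  simp only [coeff_reverse, coeff_C_mul, natDegree_map, coeff_map, frobHom_apply, polyA_natDegree n hn a]
  by_cases hkn : n < k
  · rw [polyA_coeff_large n hn a hkn, mul_zero, revAt_eq_self_of_lt hkn, polyA_coeff_large n hn a hkn, zero_pow]
    have := two_le hF
    omega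
  · have hk : k ≤ n := by omega
    rw [revAt_le hk]
    rcases Nat.eq_zero_or_pos k with rfl | hk0
    · simp only [Nat.sub_zero]
      rw [polyA_coeff_top n hn, polyA_coeff_zero n hn, one_pow, eps_sq]
    · by_cases hkn' : k = n
      · rw [hkn']
        simp only [Nat.sub_self]
        rw [polyA_coeff_top n hn, polyA_coeff_zero n hn, eps_frob hF, mul_one]
      · let j : Fin (n - 1) := ⟨k - 1, by omega⟩
        have e1 : k = (j : ℕ) + 1 := by
          simp only [j]
          omega
        have e2 : n - k = ((Fin.rev j : Fin (n - 1)) : ℕ) + 1 := by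
          simp only [Fin.val_rev, j]
          omega
        rw [e2, polyA_coeff_mid n hn, e1, polyA_coeff_mid n hn]
        have h1 := congrFun ha j
        simp only [invo] at h1
        rw [← h1, ← mul_assoc, eps_sq, one_mul]

/-- The count of self-dual polynomials. -/
theorem card_selfP (hn : 1 ≤ n) : Nat.card {f : F[X] // SelfP hF n f} = q ^ (n - 1) := by
  classical
  have hq2 := two_le hF
  let ι := invo (F := F) n q
  have hadd : ∀ x y, ι (x + y) = ι x + ι y := by
    intro x y
    funext j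
    simp only [ι, invo, Pi.add_apply]
    rw [frob_add hF, mul_add]
  have hinv : ∀ x, ι (ι x) = x := by
    intro x
    funext j
    simp only [ι, invo, Fin.rev_rev]
    have h1 : ((-1 : F) ^ n * x j ^ q) ^ q = (-1) ^ n * x j := by
      rw [mul_pow, eps_frob hF, frob_frob hF]
    rw [h1, ← mul_assoc, eps_sq, one_mul]
  have hsmul : ∀ (c : F) x, ι (c • x) = c ^ q • ι x := by
    intro c x
    funext j
    simp only [ι, invo, Pi.smul_apply, smul_eq_mul]
    rw [mul_pow]
    ring
  have h1 := card_fix_sq hF ι hadd hinv hsmul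
  have hV : Nat.card (Fin (n - 1) → F) = (q ^ (n - 1)) ^ 2 := by
    rw [Nat.card_fun, Nat.card_eq_fintype_card, hF, Nat.card_fin, ← pow_mul, ← pow_mul, mul_comm]
  rw [hV] at h1
  have h2 : Nat.card {v : Fin (n - 1) → F // ι v = v} = q ^ (n - 1) :=
    Nat.pow_left_injective (n := 2) (by omega) h1
  rw [← h2]
  symm
  apply Nat.card_congr
  refine { toFun := fun a => ⟨polyA n a.1, polyA_selfP hF n hn a.1 a.2⟩,
           invFun := fun f => ⟨fun j => f.1.coeff ((j : ℕ) + 1), ?_⟩,
           left_inv := ?_, right_inv := ?_ }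
  · funext j
    have hj := j.2
    simp only [ι, invo]
    have h3 := coeff_selfP hF n f.2 (k := (j : ℕ) + 1) (by omega)
    have e2 : n - ((j : ℕ) + 1) = ((Fin.rev j : Fin (n - 1)) : ℕ) + 1 := by
      simp only [Fin.val_rev]
      omega
    rw [h3, e2]
  · intro a
    apply Subtype.ext
    funext j
    exact polyA_coeff_mid n hn a.1 j
  · intro f
    apply Subtype.ext
    ext k
    show (polyA n (fun j : Fin (n - 1) => f.1.coeff ((j : ℕ) + 1))).coeff k = f.1.coeff k
    have htop : f.1.coeff n = 1 := by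
      have := f.2.1.coeff_natDegree
      rwa [f.2.2.1] at this
    by_cases hkn : n < k
    · rw [polyA_coeff_large n hn _ hkn, coeff_eq_zero_of_natDegree_lt]
      rw [f.2.2.1]
      exact hkn
    · rcases Nat.eq_zero_or_pos k with rfl | hk0
      · rw [polyA_coeff_zero n hn, f.2.2.2.1]
      · by_cases hkn' : k = n
        · subst hkn'
          rw [polyA_coeff_top k hn, htop]
        · let j : Fin (n - 1) := ⟨k - 1, by omega⟩
          have e1 : k = (j : ℕ) + 1 := by
            simp only [j]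
            omega
          rw [e1, polyA_coeff_mid n hn]

/-- Characteristic polynomials of elements of `SU`. -/
theorem selfP_charpoly (X : ↥(Cfsg.SU n F q)) : SelfP hF n (X.1.1 : Matrix (Fin n) (Fin n) F).charpoly := by
  classical
  set M : Matrix (Fin n) (Fin n) F := X.1.1 with hM
  have hm : M.charpoly.Monic := Matrix.charpoly_monic _
  have hd : M.charpoly.natDegree = n := by
    rw [Matrix.charpoly_natDegree_eq_dim]
    simp
  have hdet : M.det = 1 := X.1.2
  have h4 := Matrix.det_eq_sign_charpoly_coeff M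
  rw [hdet, Fintype.card_fin] at h4
  have h0 : M.charpoly.coeff 0 = (-1) ^ n := by
    have h5 := congrArg (fun x => (-1 : F) ^ n * x) h4
    simp only [mul_one, ← mul_assoc, eps_sq, one_mul] at h5
    exact h5.symm
  obtain ⟨s, hs, hr⟩ := Cfsg.Agent.Lib.SUSpec.Structure.charpoly_selfdual hF X
  have hc0 : M.charpoly.coeff 0 ≠ 0 := by
    rw [h0]
    exact pow_ne_zero _ (by simp)
  have h5 : s = (-1) ^ n := by
    have h6 := congrArg (fun g : F[X] => g.coeff 0) hr
    simp only [coeff_zero_reverse, coeff_C_mul] at h6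
    rw [← hM, Monic.leadingCoeff (hm.map _), h0] at h6
    have h7 := congrArg (fun x => x * (-1 : F) ^ n) h6
    simp only [one_mul, mul_assoc, eps_sq, mul_one] at h7
    exact h7.symm
  rw [h5] at hr
  exact selfP_of_reverse hF n hm hd h0 hr

/-- The semisimple part. -/
theorem exists_regular (p : ℕ) [hp : Fact p.Prime] [CharP F p] (A : ↥(Cfsg.SU n F q)) :
    ∃ B : ↥(Cfsg.SU n F q), (orderOf B).Coprime p ∧
      (B.1.1 : Matrix (Fin n) (Fin n) F).charpoly = (A.1.1 : Matrix (Fin n) (Fin n) F).charpoly := by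
  classical
  set Q := Fintype.card F with hQ
  have ho0 : orderOf A ≠ 0 := (orderOf_pos A).ne'
  obtain ⟨a, c, hc, hoc⟩ := Nat.exists_eq_pow_mul_and_not_dvd ho0 p hp.out.one_lt.ne'
  obtain ⟨f, hf, hcard⟩ := FiniteField.card F p
  have hq1 : Q = p ^ (f : ℕ) := hcard
  have hf0 : (f : ℕ) ≠ 0 := f.ne_zero
  refine ⟨A ^ (Q ^ a), ?_, ?_⟩
  · have hq0 : Q ^ a ≠ 0 := pow_ne_zero _ (by rw [hQ]; exact Fintype.card_ne_zero)
    rw [orderOf_pow' _ hq0]
    have hcop : Nat.Coprime c (Q ^ a) := by
      apply Nat.Coprime.pow_right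
      rw [hq1]
      apply Nat.Coprime.pow_right
      exact ((hp.out.coprime_iff_not_dvd).mpr hc).symm
    have hpd : p ^ a ∣ Q ^ a := pow_dvd_pow_of_dvd (by rw [hq1]; exact dvd_pow_self p hf0) a
    have hg : Nat.gcd (orderOf A) (Q ^ a) = p ^ a := by
      rw [hoc, mul_comm, hcop.gcd_mul_left_cancel]
      exact Nat.gcd_eq_left hpd
    rw [hg, hoc]
    rw [Nat.mul_div_cancel_left _ (pow_pos hp.out.pos a)]
    exact ((hp.out.coprime_iff_not_dvd).mpr hc).symm
  · have hpow : ∀ j : ℕ, ((A ^ (Q ^ j) : ↥(Cfsg.SU n F q)).1.1 : Matrix (Fin n) (Fin n) F).charpoly =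
        (A.1.1 : Matrix (Fin n) (Fin n) F).charpoly := by
      intro j
      induction j with
      | zero => simp
      | succ j ih =>
        rw [pow_succ, pow_mul]
        have h1 : (((A ^ (Q ^ j)) ^ Q : ↥(Cfsg.SU n F q)).1.1 : Matrix (Fin n) (Fin n) F) =
            ((A ^ (Q ^ j) : ↥(Cfsg.SU n F q)).1.1 : Matrix (Fin n) (Fin n) F) ^ Q := rfl
        rw [h1, hQ, FiniteField.Matrix.charpoly_pow_card, ← hQ, ih]
    exact hpow a

/-- Existence of an element of `SU` with given characteristic polynomial. -/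
theorem exists_su_of_selfP (p : ℕ) [Fact p.Prime] [CharP F p] {a : ℕ} (hq : q = p ^ a) {f : F[X]} (hf : SelfP hF n f) :
    ∃ g : ↥(Cfsg.SU n F q), (orderOf g).Coprime p ∧ (g.1.1 : Matrix (Fin n) (Fin n) F).charpoly = f := by
  classical
  have h00 : f.coeff 0 ≠ 0 := by
    rw [hf.2.2.1]
    exact pow_ne_zero _ (by simp)
  obtain ⟨V, _, _, _, h, S, T, hT, hc⟩ := hasIso_of_selfdual hF p hq n f hf.1 hf.2.1 h00 hf.2.2.2
  have : Finite V := Module.finite_of_finite F
  have hr : finrank F V = n := by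
    rw [← LinearMap.charpoly_natDegree T, hc, hf.2.1]
  obtain ⟨ψ, hψ⟩ := Cfsg.Agent.Lib.Witt.HermModel.exists_model S hF n hr
  let L : Module.End F (Fin n → F) := ψ.symm.conj T
  have hL : ∀ x, ψ (L x) = T (ψ x) := by
    intro x
    simp [L, LinearEquiv.conj_apply]
  have hLi : ∀ x y, Cfsg.hermForm n F q (L x) (L y) = Cfsg.hermForm n F q x y := by
    intro x y
    rw [← hψ, ← hψ, hL, hL, hT]
  have hdetT : LinearMap.det T = 1 := by
    rw [LinearMap.det_eq_sign_charpoly_coeff, hc, hf.2.2.1, hr, eps_sq]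
  have hdetL : LinearMap.det L = 1 := by
    simp only [L]
    rw [LinearEquiv.conj_apply]
    rw [LinearMap.comp_assoc, LinearMap.det_conj, hdetT]
  obtain ⟨A, hA⟩ := su_of_isometry hF L hLi hdetL
  have hAc : (A.1.1 : Matrix (Fin n) (Fin n) F).charpoly = f := by
    have h1 : Matrix.toLin' (A.1.1 : Matrix (Fin n) (Fin n) F) = L := by
      apply LinearMap.ext
      intro x
      exact hA x
    rw [← Matrix.charpoly_toLin', h1, ← hc]
    exact LinearEquiv.charpoly_conj ψ.symm T
  obtain ⟨B, hB, hBc⟩ := exists_regular n p A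
  exact ⟨B, hB, hBc.trans hAc⟩

end Cfsg.Agent.Lib.SUConj.Count
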